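import Mathlib
import Cfsg.Agent.Lib.Helper2.BG.PartnerDefs
import Cfsg.Agent.Lib.Helper24.BG.S1431Util
import Cfsg.Agent.Lib.Helper74.BG.Tools
import Cfsg.Agent.Lib.Helper61.BG9a
import Cfsg.Agent.Lib.Helper23.Transitivity3

/-!
Packages TI and UNIQ of the Bender–Glauberman 14.7 project (helper2's `PartnerDefs`) — helper49.
-/

set_option autoImplicit false

namespace Cfsg.Agent.Lib.Helper49.BG

open Cfsg Cfsg.Agent.Lib.Helper2.BG47 Cfsg.Agent.Lib.Helper23 Cfsg.Agent.Lib.Helper61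
open Cfsg.Agent.Lib.Helper46

universe u

/-- `M_σ ≤ M`. -/
theorem sigmaCore_le' {G : Type u} [Group G] (M : Subgroup G) : sigmaCore M ≤ M :=
  Subgroup.map_subtype_le _

/-- The prime divisors of `|M_σ|` lie in `σ(M)`. -/
theorem sigmaCore_isPi' {G : Type u} [Group G] [Finite G] (M : Subgroup G) :
    ∀ p : ℕ, p.Prime → p ∣ Nat.card (sigmaCore M) → p ∈ sigma M :=
  piCoreOf_isPi (sigma M) M

/-- Package TI: the elements of `Z` outside `KL ∪ C_{L_σ}(KL)` are fused only by `Z`. -/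
theorem lemTI : Cfsg.Agent.Lib.Helper2.BG47.LemTI.{u} := by
  intro G _ _ hG _h1430 h1431 Z L KL hGood z hzZ hzK hzC h hhz
  obtain ⟨hL, hKL, hKL1, hZ⟩ := hGood
  obtain ⟨h31a, h31b, -, -⟩ := h1431 L hL KL hKL hKL1
  have hCstK : kstar L KL ≤ Subgroup.centralizer (KL : Set G) := inf_le_right
  have hCstL : kstar L KL ≤ L := inf_le_left.trans (sigmaCore_le' L)
  have hcop : (Nat.card KL).Coprime (Nat.card (kstar L KL)) := by
    apply Nat.coprime_of_dvd
    intro q hq hqK hqC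
    have h1 : q ∈ kappa L := hKL.2.1 q hq hqK
    have h2 : q ∈ sigma L :=
      sigmaCore_isPi' L q hq (hqC.trans (Subgroup.card_dvd_of_le inf_le_left))
    exact h1.2.2.1 h2
  have hdec : ∀ w ∈ Z, ∃ k ∈ KL, ∃ c ∈ kstar L KL, w = k * c := by
    intro w hw
    rw [← hZ] at hw
    exact exists_mul_of_mem_sup (hCstK.trans (Subgroup.centralizer_le_normalizer _)) hw
  obtain ⟨k, hk, c, hc, rfl⟩ := hdec z hzZ
  obtain ⟨k', hk', c', hc', hw⟩ := hdec _ hhz
  have hkc : Commute k c := hCstK hc k hk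
  have hk'c' : Commute k' c' := hCstK hc' k' hk'
  have hc1 : c ≠ 1 := by
    rintro rfl
    exact hzK (by simpa using hk)
  have hk1 : k ≠ 1 := by
    rintro rfl
    exact hzC (by simpa using hc)
  have hpowK : ∀ y ∈ KL, y ^ Nat.card KL = 1 := by
    intro y hy
    have := pow_card_eq_one' (G := KL) (x := ⟨y, hy⟩)
    exact congrArg Subtype.val this
  have hpowC : ∀ y ∈ kstar L KL, y ^ Nat.card (kstar L KL) = 1 := by
    intro y hy
    have := pow_card_eq_one' (G := kstar L KL) (x := ⟨y, hy⟩)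
    exact congrArg Subtype.val this
  have hhL : h ∈ L := by
    by_contra hnot
    have hbot := h31a h hnot
    have hmem : h * c ^ Nat.card KL * h⁻¹ ∈
        kstar L KL ⊓ L.map (MulAut.conj h).toMonoidHom := by
      refine Subgroup.mem_inf.mpr ⟨?_, ?_⟩
      · have e1 : h * c ^ Nat.card KL * h⁻¹ = (h * (k * c) * h⁻¹) ^ Nat.card KL := by
          rw [conj_pow, hkc.mul_pow, hpowK k hk, one_mul]
        rw [e1, hw, hk'c'.mul_pow, hpowK k' hk', one_mul]
        exact Subgroup.pow_mem _ hc' _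
      · rw [mem_mapConj]
        have e : h⁻¹ * (h * c ^ Nat.card KL * h⁻¹) * h = c ^ Nat.card KL := by group
        rw [e]
        exact L.pow_mem (hCstL hc) _
    rw [hbot, Subgroup.mem_bot] at hmem
    have hcm : c ^ Nat.card KL = 1 := by
      have e : c ^ Nat.card KL = h⁻¹ * (h * c ^ Nat.card KL * h⁻¹) * h := by group
      rw [e, hmem]
      group
    have hd := Nat.dvd_gcd (orderOf_dvd_of_pow_eq_one hcm)
      (orderOf_dvd_of_pow_eq_one (hpowC c hc))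
    rw [Nat.Coprime.gcd_eq_one hcop] at hd
    exact hc1 (orderOf_eq_one_iff.mp (Nat.dvd_one.mp hd))
  by_contra hnotZ
  have hbot := h31b h hhL (by rw [hZ]; exact hnotZ)
  have hmem : h * k ^ Nat.card (kstar L KL) * h⁻¹ ∈
      KL ⊓ KL.map (MulAut.conj h).toMonoidHom := by
    refine Subgroup.mem_inf.mpr ⟨?_, ?_⟩
    · have e1 : h * k ^ Nat.card (kstar L KL) * h⁻¹ =
          (h * (k * c) * h⁻¹) ^ Nat.card (kstar L KL) := by
        rw [conj_pow, hkc.mul_pow, hpowC c hc, mul_one]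
      rw [e1, hw, hk'c'.mul_pow, hpowC c' hc', mul_one]
      exact Subgroup.pow_mem _ hk' _
    · rw [mem_mapConj]
      have e : h⁻¹ * (h * k ^ Nat.card (kstar L KL) * h⁻¹) * h =
          k ^ Nat.card (kstar L KL) := by group
      rw [e]
      exact KL.pow_mem hk _
  rw [hbot, Subgroup.mem_bot] at hmem
  have hkn : k ^ Nat.card (kstar L KL) = 1 := by
    have e : k ^ Nat.card (kstar L KL) =
        h⁻¹ * (h * k ^ Nat.card (kstar L KL) * h⁻¹) * h := by group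
    rw [e, hmem]
    group
  have hd := Nat.dvd_gcd (orderOf_dvd_of_pow_eq_one (hpowK k hk))
    (orderOf_dvd_of_pow_eq_one hkn)
  rw [Nat.Coprime.gcd_eq_one hcop] at hd
  exact hk1 (orderOf_eq_one_iff.mp (Nat.dvd_one.mp hd))

/-- `C_{M_σ}(K) ≠ 1` for a nontrivial Hall `κ(M)`-subgroup `K` of the maximal subgroup `M`. -/
theorem kstar_ne_bot' {G : Type u} [Group G] [Finite G] (hG : Cfsg.IsMinSimpleOddOrder G)
    (h1430 : type_of% (@Cfsg.CfsgFrozen.S1430 G _ _ hG)) {M K : Subgroup G} (hM : IsCoatom M)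
    (hK : Cfsg.IsPiHallOf (Cfsg.kappa M) K M) (hK1 : K ≠ ⊥) : kstar M K ≠ ⊥ := by
  obtain ⟨h30a, -, -⟩ := h1430 M hM K hK hK1
  have hKcard : Nat.card K ≠ 1 := fun h => hK1 (Subgroup.card_eq_one.mp h)
  obtain ⟨p, hp, hpK⟩ := Nat.exists_prime_and_dvd hKcard
  have : Fact p.Prime := ⟨hp⟩
  have hpκ : p ∈ kappa M := hK.2.1 p hp hpK
  obtain ⟨R, hR, -⟩ := Cfsg.Agent.Lib.Helper35.BG.exists_isSylowIn_ge (p := p)
    (Q := (⊥ : Subgroup G)) (H := K) IsPGroup.of_bot bot_le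
  have hRp : IsPGroup p R := IsPGroup.of_card hR.2
  have hRM : IsSylowIn p R M := by
    apply Cfsg.Agent.Lib.Helper74.BG.isSylowIn_of_not_dvd_relIndex hRp (hR.1.trans hK.1)
    rw [← Subgroup.relIndex_mul_relIndex R K M hR.1 hK.1]
    intro hdvd
    rcases (Nat.Prime.dvd_mul hp).mp hdvd with h1 | h1
    · exact Cfsg.Agent.Lib.Helper24.BG31.sylIn_not_dvd_relIndex hR h1
    · exact hK.2.2 p hp hpκ h1
  obtain ⟨S, hS⟩ := hRM.exists_sylow
  obtain ⟨-, x, hxS, hx1, y, hy, hy1, hxy⟩ := hpκ.2.2.2 S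
  have hxK : (x : G) ∈ K := hR.1 (hS ▸ Subgroup.mem_map_of_mem M.subtype hxS)
  have hx1' : (x : G) ≠ 1 := fun h => hx1 (Subtype.ext h)
  have hymem : y ∈ sigmaCore M ⊓ Subgroup.centralizer ({(x : G)} : Set G) := by
    refine Subgroup.mem_inf.mpr ⟨hy, ?_⟩
    rw [mem_centralizer_singleton]
    exact hxy
  rw [h30a x hxK hx1'] at hymem
  intro hbot
  have hbot' : sigmaCore M ⊓ Subgroup.centralizer (K : Set G) = ⊥ := hbot
  rw [hbot', Subgroup.mem_bot] at hymem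
  exact hy1 hymem

/-- Package UNIQ: uniqueness of the partner `M*`. -/
theorem lemUniq : Cfsg.Agent.Lib.Helper2.BG47.LemUniq.{u} := by
  intro G _ _ hG _h1350 h1430 h1431 M hM K hK hK1 M₁ M₂ hM₁ hM₂ hK1eq hH1 hK2eq hH2
  have hKst : kstar M K ≠ ⊥ := kstar_ne_bot' hG h1430 hM hK hK1
  obtain ⟨-, -, -, h1d⟩ := h1431 M₁ hM₁ (kstar M K) hH1 hKst
  obtain ⟨-, -, h2c, -⟩ := h1431 M₂ hM₂ (kstar M K) hH2 hKst
  have hKσ1 : K ≤ sigmaCore M₁ := le_of_eq_of_le hK1eq inf_le_left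
  have hKσ2 : K ≤ sigmaCore M₂ := le_of_eq_of_le hK2eq inf_le_left
  have hKcard : Nat.card K ≠ 1 := fun h => hK1 (Subgroup.card_eq_one.mp h)
  obtain ⟨p, hp, hpK⟩ := Nat.exists_prime_and_dvd hKcard
  have : Fact p.Prime := ⟨hp⟩
  obtain ⟨x, hx⟩ := exists_prime_orderOf_dvd_card' (G := K) p hpK
  have hxo : orderOf (x : G) = p := by rw [Subgroup.orderOf_coe]; exact hx
  have hx1 : (x : G) ≠ 1 := by
    intro h
    rw [h, orderOf_one] at hxo
    exact hp.one_lt.ne hxo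
  have hxp : IsPGroup p (Subgroup.zpowers (x : G)) := by
    apply isPGroup_zpowers_of_pow (k := 1)
    rw [pow_one, ← hxo]
    exact pow_orderOf_eq_one _
  obtain ⟨R, hR, hxR⟩ := Cfsg.Agent.Lib.Helper35.BG.exists_isSylowIn_ge hxp
    ((Subgroup.zpowers_le.mpr x.2).trans hKσ2)
  have hRp : IsPGroup p R := IsPGroup.of_card hR.2
  obtain ⟨S₂, hS₂⟩ := hR.exists_sylow
  have hpK2 : p ∣ Nat.card ↥(sigmaCore M₂ ⊓ Subgroup.centralizer ((kstar M K : Subgroup G) : Set G)) := by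
    rw [← hK2eq]
    exact hpK
  obtain ⟨hRU, hRM₂, -⟩ := h2c p hp hpK2 S₂
  rw [hS₂] at hRU hRM₂
  have hpσ1 : p ∈ sigma M₁ :=
    sigmaCore_isPi' M₁ p hp (hpK.trans (Subgroup.card_dvd_of_le hKσ1))
  have hRσ1 : R ≤ sigmaCore M₁ := by
    apply h1d R
    · intro q hq hqR
      obtain ⟨n, hn⟩ := IsPGroup.iff_card.mp hRp
      rw [hn] at hqR
      have hqp : q = p := (Nat.prime_dvd_prime_iff_eq hq hp).mp (hq.dvd_of_dvd_pow hqR)
      rw [hqp]
      exact hpσ1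
    · intro hbot
      have hmem : (x : G) ∈ R ⊓ (sigmaCore M₁ ⊓
          Subgroup.centralizer ((kstar M K : Subgroup G) : Set G)) := by
        refine Subgroup.mem_inf.mpr ⟨hxR (Subgroup.mem_zpowers _), ?_⟩
        rw [← hK1eq]
        exact x.2
      rw [hbot, Subgroup.mem_bot] at hmem
      exact hx1 hmem
  have hRM₁ : R ≤ M₁ := hRσ1.trans (sigmaCore_le' M₁)
  exact bg_unique_eq hRU hM₁ hRM₁ hM₂ hRM₂

end Cfsg.Agent.Lib.Helper49.BG
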